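import Cfsg.Agent.Ree4Sections.Torus
import Mathlib.GroupTheory.SpecificGroups.Alternating
import Mathlib.GroupTheory.Sylow

/-!
# Alternating sections of the large Ree groups
-/

set_option autoImplicit false
set_option maxRecDepth 100000
set_option linter.style.haveILetI false
set_option linter.unusedSectionVars false

namespace CfsgLib.Chev.Ree4Sections

open Cfsg.Lie CfsgLib.Chev CfsgLib.Chev.Ree4

universe u

/-- A seven-cycle and an element squaring it, in a large alternating group. -/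
theorem exists_seven {r : ℕ} (hr : 7 ≤ r) :
    ∃ σ τ : ↥(alternatingGroup (Fin r)), orderOf σ = 7 ∧ τ * σ * τ⁻¹ = σ ^ 2 := by
  let σ₀ : Equiv.Perm (Fin 7) := finRotate 7
  let τ₀ : Equiv.Perm (Fin 7) := ⟨fun i => 2 * i, fun i => 4 * i, by decide, by decide⟩
  have h1 : σ₀ ^ 7 = 1 := by decide
  have h2 : τ₀ * σ₀ * τ₀⁻¹ = σ₀ ^ 2 := by decide
  have hs : Equiv.Perm.sign σ₀ = 1 ∧ Equiv.Perm.sign τ₀ = 1 := by decide
  have h3 : σ₀ ≠ 1 := by decide
  let e : Fin 7 ≃ {i : Fin r // (i : ℕ) < 7} :=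
    ⟨fun i => ⟨⟨i, by omega⟩, i.2⟩, fun i => ⟨i.1, i.2⟩, fun i => rfl, fun i => rfl⟩
  let f := Equiv.Perm.extendDomainHom e
  have hf : ∀ x, Equiv.Perm.sign x = 1 → f x ∈ alternatingGroup (Fin r) := fun x hx => by
    rw [Equiv.Perm.mem_alternatingGroup]
    show Equiv.Perm.sign (x.extendDomain e) = 1
    rw [Equiv.Perm.sign_extendDomain, hx]
  refine ⟨⟨f σ₀, hf _ hs.1⟩, ⟨f τ₀, hf _ hs.2⟩, ?_, ?_⟩
  · haveI : Fact (Nat.Prime 7) := ⟨by norm_num⟩
    refine orderOf_eq_prime (Subtype.ext ?_) fun h => h3 ?_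
    · rw [SubgroupClass.coe_pow, ← map_pow, h1, map_one, OneMemClass.coe_one]
    · exact Equiv.Perm.extendDomainHom_injective e ((congrArg Subtype.val h).trans (map_one f).symm)
  · refine Subtype.ext ?_
    show f τ₀ * f σ₀ * (f τ₀)⁻¹ = f σ₀ ^ 2
    rw [← map_inv, ← map_mul, ← map_mul, h2, map_pow]

/-- No element of a subgroup of the torus is squared by a normalising element, up to a homomorphism. -/
theorem no_seven {Γ A : Type*} [Group Γ] [Finite Γ] [Group A] {f : Γ →* A} {σ τ : A}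
    (hf : Function.Surjective f) (hσ : orderOf σ = 7) (hτ : τ * σ * τ⁻¹ = σ ^ 2)
    (hpow : ∀ P : Subgroup Γ, IsPGroup 7 P → ∀ g : Γ, (∀ x ∈ P, g * x * g⁻¹ ∈ P) →
      ∀ x ∈ P, g ^ 16 * x * (g ^ 16)⁻¹ = x) : False := by
  haveI : Fact (Nat.Prime 7) := ⟨by norm_num⟩
  set Z := Subgroup.zpowers σ
  set Q := Z.comap f with hQ
  obtain ⟨y, hy⟩ := hf τ
  obtain ⟨P⟩ : Nonempty (Sylow 7 ↥Q) := inferInstance
  have hZ : ∀ a : A, a ∈ Z → τ * a * τ⁻¹ ∈ Z := by
    intro a ha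
    obtain ⟨k, rfl⟩ := Subgroup.mem_zpowers_iff.1 ha
    rw [← MulAut.conj_apply, map_zpow, MulAut.conj_apply, hτ]
    exact zpow_mem (pow_mem (Subgroup.mem_zpowers σ) 2) k
  let fQ : ↥Q →* ↥Z := (f.comp Q.subtype).codRestrict Z fun x => x.2
  have hfQ : Function.Surjective fQ := fun z => by
    obtain ⟨x, hx⟩ := hf z.1
    exact ⟨⟨x, by rw [hQ, Subgroup.mem_comap, hx]; exact z.2⟩, Subtype.ext hx⟩
  haveI : Finite ↥Z := Finite.of_surjective fQ hfQ
  -- the image of the Sylow subgroup is everything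
  have htop : (P : Subgroup ↥Q).map fQ = ⊤ := by
    have hidx := (P : Subgroup ↥Q).index_map_dvd hfQ
    have h7 : ((P : Subgroup ↥Q).map fQ).index ∣ 7 :=
      (Subgroup.index_dvd_card _).trans (by rw [Nat.card_zpowers, hσ])
    rcases (Nat.dvd_prime (by norm_num)).1 h7 with h | h
    · exact Subgroup.index_eq_one.1 h
    · rw [h] at hidx; exact absurd hidx P.not_dvd_index
  obtain ⟨p, hp, hpσ⟩ : ∃ p ∈ (P : Subgroup ↥Q), f p.1 = σ := by
    obtain ⟨p, hp, e⟩ := Subgroup.mem_map.1 (htop ▸ Subgroup.mem_top (⟨σ, Subgroup.mem_zpowers σ⟩ : ↥Z) :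
      (⟨σ, Subgroup.mem_zpowers σ⟩ : ↥Z) ∈ (P : Subgroup ↥Q).map fQ)
    exact ⟨p, hp, congrArg Subtype.val e⟩
  -- the Frattini argument
  have hyQ : ∀ x : ↥Q, y * x.1 * y⁻¹ ∈ Q := fun x => by
    show f (y * x.1 * y⁻¹) ∈ Z
    rw [map_mul, map_mul, map_inv, hy]
    exact hZ _ x.2
  let c : ↥Q →* ↥Q := ((MulAut.conj y).toMonoidHom.comp Q.subtype).codRestrict Q hyQ
  have hcinj : Function.Injective c := fun a b h => by
    have h' : y * a.1 * y⁻¹ = y * b.1 * y⁻¹ := congrArg Subtype.val h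
    exact Subtype.ext (mul_left_cancel (mul_right_cancel h'))
  let ce : ↥Q ≃* ↥Q := MulEquiv.ofBijective c ⟨hcinj, Finite.surjective_of_injective hcinj⟩
  obtain ⟨q, hq⟩ := MulAction.exists_smul_eq (↥Q) (P.mapSurjective (f := ce.toMonoidHom) ce.surjective) P
  set g : Γ := q.1 * y with hg
  have hnorm : ∀ x ∈ (P : Subgroup ↥Q).map Q.subtype, g * x * g⁻¹ ∈ (P : Subgroup ↥Q).map Q.subtype := by
    rintro x ⟨x, hx, rfl⟩
    have h1 : q * c x * q⁻¹ ∈ (P : Subgroup ↥Q) := by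
      rw [← hq, Sylow.coe_subgroup_smul, Subgroup.mem_pointwise_smul_iff_inv_smul_mem]
      refine ⟨x, hx, ?_⟩
      show c x = (MulAut.conj q)⁻¹ (q * c x * q⁻¹)
      rw [← map_inv, MulAut.conj_apply]; group
    refine ⟨_, h1, ?_⟩
    show (q.1 : Γ) * (y * x.1 * y⁻¹) * q.1⁻¹ = g * x.1 * g⁻¹
    rw [hg]; group
  have hfg : f g * σ * (f g)⁻¹ = σ ^ 2 := by
    obtain ⟨k, hk⟩ := Subgroup.mem_zpowers_iff.1 (show f q.1 ∈ Z from q.2)
    rw [hg, map_mul, hy, ← hk, show σ ^ k * τ * σ * (σ ^ k * τ)⁻¹ = σ ^ k * (τ * σ * τ⁻¹) * (σ ^ k)⁻¹ by group, hτ]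
    group
  have hPp : IsPGroup 7 ↥((P : Subgroup ↥Q).map Q.subtype) := P.2.map Q.subtype
  have h16 := hpow _ hPp g hnorm p.1 ⟨p, hp, rfl⟩
  have hiter : ∀ k : ℕ, f g ^ k * σ * (f g ^ k)⁻¹ = σ ^ 2 ^ k := by
    intro k
    induction k with
    | zero => simp
    | succ k ih =>
      rw [pow_succ', show f g * f g ^ k * σ * (f g * f g ^ k)⁻¹ = f g * (f g ^ k * σ * (f g ^ k)⁻¹) * (f g)⁻¹ by
        group, ih, ← conj_pow, hfg, ← pow_mul, ← pow_succ']
  have e := congrArg f h16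
  rw [map_mul, map_mul, map_inv, map_pow, hpσ, hiter] at e
  have h65536 : σ ^ (2 ^ 16) = σ ^ 2 := by
    rw [← pow_mod_orderOf, hσ]
    norm_num
  rw [h65536] at e
  have : σ = 1 := by
    have e' : σ * σ = σ * 1 := by rw [mul_one, ← pow_two]; simpa using e
    exact mul_left_cancel e'
  rw [this, orderOf_one] at hσ
  omega

variable {K : Type u} [Field K] [Finite K] [CharP K 2] (m : ℕ) (hK : Nat.card K = 2 ^ (2 * m + 1))

local notation "θ" => (2 ^ m : ℕ)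

theorem seven_not_dvd (q : ℕ) (h : q % 7 = 1 ∨ q % 7 = 2 ∨ q % 7 = 4) :
    ¬ 7 ∣ q ^ 12 * ((q + 1) * (q ^ 2 + 1)) * (q ^ 3 + 1) * (q ^ 6 + 1) := by
  rw [Nat.dvd_iff_mod_eq_zero]
  rcases h with h | h | h <;> simp [Nat.mul_mod, Nat.add_mod, Nat.pow_mod, h]

include hK in
theorem seven_not_dvd_index :
    ¬ 7 ∣ ((H1 K m).subgroupOf (twistedF4 K θ)).index := by
  set q := 2 ^ (2 * m + 1) with hq
  have hmod : q % 7 = 1 ∨ q % 7 = 2 ∨ q % 7 = 4 := by
    rw [hq, Nat.pow_mod]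
    have : ∀ k : ℕ, 2 ^ k % 7 = 1 ∨ 2 ^ k % 7 = 2 ∨ 2 ^ k % 7 = 4 := by
      intro k
      induction k with
      | zero => simp
      | succ k ih => rw [pow_succ]; omega
    simpa [← Nat.pow_mod] using this (2 * m + 1)
  have hcard : Nat.card ↥((H1 K m).subgroupOf (twistedF4 K θ)) = (q - 1) ^ 2 := by
    rw [Nat.card_congr (Subgroup.subgroupOfEquivOfLe (H1_le m hK)).toEquiv, card_torus m hK]
  have h := ((H1 K m).subgroupOf (twistedF4 K θ)).card_mul_index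
  rw [hcard, card_group m hK, ← hq] at h
  obtain ⟨r, hr⟩ : ∃ r, q = r + 2 := ⟨q - 2, by
    have : 2 ^ 1 ≤ q := Nat.pow_le_pow_right (by norm_num) (by omega)
    omega⟩
  have e4 : q ^ 4 - 1 = (q - 1) * ((q + 1) * (q ^ 2 + 1)) := by
    rw [hr, show r + 2 - 1 = r + 1 by omega]
    exact Nat.sub_eq_of_eq_add (by ring)
  rw [e4, show q ^ 12 * (q - 1) * (q ^ 3 + 1) * ((q - 1) * ((q + 1) * (q ^ 2 + 1))) * (q ^ 6 + 1) =
    (q - 1) ^ 2 * (q ^ 12 * ((q + 1) * (q ^ 2 + 1)) * (q ^ 3 + 1) * (q ^ 6 + 1)) by ring] at h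
  rw [Nat.eq_of_mul_eq_mul_left (pow_pos (by omega) 2) h]
  exact seven_not_dvd q hmod

include hK in
/-- No subgroup maps onto an alternating group of degree at least seven. -/
theorem alternating_bound {r : ℕ} (H : Subgroup ↥(twistedF4 K θ)) (f : ↥H →* ↥(alternatingGroup (Fin r)))
    (hf : Function.Surjective f) : r ≤ 6 := by
  by_contra hr
  push Not at hr
  haveI : Fact (Nat.Prime 7) := ⟨by norm_num⟩
  obtain ⟨σ, τ, hσ, hτ⟩ := exists_seven (r := r) hr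
  refine no_seven hf hσ hτ fun P hP g hg x hx => ?_
  set H' := (H1 K m).subgroupOf (twistedF4 K θ)
  obtain ⟨S⟩ : Nonempty (Sylow 7 ↥H') := inferInstance
  have hidx : ¬ 7 ∣ ((S : Subgroup ↥H').map H'.subtype).index := by
    rw [Subgroup.index_map_subtype]
    exact fun h => (Nat.Prime.dvd_mul (by norm_num)).1 h |>.elim S.not_dvd_index (seven_not_dvd_index m hK)
  let S' : Sylow 7 ↥(twistedF4 K θ) := IsPGroup.toSylow (S.2.map H'.subtype) hidx
  obtain ⟨T, hT⟩ := (hP.map H.subtype).exists_le_sylow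
  obtain ⟨c, hc⟩ := MulAction.exists_smul_eq ↥(twistedF4 K θ) T S'
  -- move everything into the torus
  let ψ : ↥H →* GL chevF4.Idx K :=
    (twistedF4 K θ).subtype.comp ((MulAut.conj c).toMonoidHom.comp H.subtype)
  have hψinj : Function.Injective ψ :=
    Subtype.val_injective.comp ((MulAut.conj c).injective.comp Subtype.val_injective)
  have hX : P.map ψ ≤ H1 K m := by
    rintro _ ⟨a, ha, rfl⟩
    have h1 : c * (a : ↥(twistedF4 K θ)) * c⁻¹ ∈ (S' : Subgroup ↥(twistedF4 K θ)) := by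
      rw [← hc, Sylow.coe_subgroup_smul, Subgroup.mem_pointwise_smul_iff_inv_smul_mem]
      convert hT (Subgroup.mem_map_of_mem H.subtype ha) using 1
      show (MulAut.conj c)⁻¹ (c * (a : ↥(twistedF4 K θ)) * c⁻¹) = _
      rw [← map_inv, MulAut.conj_apply]
      simp only [Subgroup.coe_subtype]
      group
    obtain ⟨s, -, hs⟩ := h1
    have h2 : (s.1 : GL chevF4.Idx K) ∈ H1 K m := s.2
    rw [show s.1 = c * (a : ↥(twistedF4 K θ)) * c⁻¹ from hs] at h2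
    exact h2
  have hgX : ∀ z ∈ P.map ψ, ψ g * z * (ψ g)⁻¹ ∈ P.map ψ := by
    rintro _ ⟨a, ha, rfl⟩
    exact ⟨g * a * g⁻¹, hg a ha, by rw [map_mul, map_mul, map_inv]⟩
  have hfix := Ree4.pow_sixteen m hK (g := ψ g) (Subtype.prop _) (P.map ψ) hX hgX (ψ x) ⟨x, hx, rfl⟩
  rw [← map_pow, ← map_inv, ← map_mul, ← map_mul] at hfix
  exact hψinj hfix

end CfsgLib.Chev.Ree4Sections
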