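import Cfsg.Agent.Chev.Ree4.Results

/-!
# Fusion in the torus of a large Ree group
-/

set_option autoImplicit false
set_option maxRecDepth 100000
set_option linter.style.haveILetI false
set_option linter.unusedSectionVars false

namespace CfsgLib.Chev.Ree4Sections

open Cfsg.Lie CfsgLib.Chev

universe u

variable {D : ChevalleyDatum} {S : Sys.{u} D} {m : ℕ} {T : Twisted.WData S m} {K : Type u} [Field K]

theorem diag_commute (S : Sys.{u} D) {a b : GL D.Idx K} (ha : a ∈ D.diagonalSubgroup K)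
    (hb : b ∈ D.diagonalSubgroup K) : a * b = b * a := by
  obtain ⟨z, rfl⟩ := S.exists_dg ha
  obtain ⟨z', rfl⟩ := S.exists_dg hb
  rw [← Sys.dg_mul, ← Sys.dg_mul, mul_comm]

/-- An element carrying torus elements to torus elements does so as an element of the monomial group. -/
theorem exists_mono_conj (A : Twisted.GData T K) {g : GL D.Idx K} (hg : g ∈ A.G1) :
    ∃ n ∈ A.N1, ∀ s ∈ A.H1, g * s * g⁻¹ ∈ A.H1 → g * s * g⁻¹ = n * s * n⁻¹ := by
  obtain ⟨b, hb, n, hn, w, -, hw, u, hu, rfl⟩ := A.exists_normal_form hg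
  refine ⟨n, hn, fun s hs ht => ?_⟩
  set t := b * n * u * s * (b * n * u)⁻¹ with ht'
  have hsd := A.H1_diag hs
  have htd := A.H1_diag ht
  have hus : s⁻¹ * u * s ∈ S.uminus K w := by
    have := S.diag_conj_genBy (fun r => Sys.FlipsNeg w r) (inv_mem hsd) (Subgroup.mem_inf.1 hu).1
    rwa [inv_inv] at this
  have hns : n * s * n⁻¹ ∈ D.diagonalSubgroup K := S.mono_conj_diag (A.N1_le_mono hn) hsd
  have hbB : b ∈ D.borelSubgroup K := A.B1_le_borel hb
  have e : t * b * n * u = b * (n * s * n⁻¹) * n * (s⁻¹ * u * s) := by rw [ht']; group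
  obtain ⟨e1, -⟩ := S.normal_form_unique hw (mul_mem (Subgroup.mem_sup_right htd) hbB)
    (mul_mem hbB (Subgroup.mem_sup_right hns)) (Subgroup.mem_inf.1 hu).1 hus e
  obtain ⟨v, hv, h, hh, rfl⟩ := S.mem_borel_iff.1 hbB
  have e2 : v⁻¹ * (t * v * t⁻¹) = h * (n * s * n⁻¹) * (t * h)⁻¹ := by
    rw [show h * (n * s * n⁻¹) = v⁻¹ * (v * h * (n * s * n⁻¹)) by group, ← e1]; group
  have hmem : v⁻¹ * (t * v * t⁻¹) ∈ D.posUnipotent K ⊓ D.diagonalSubgroup K :=
    Subgroup.mem_inf.2 ⟨mul_mem (inv_mem hv) (S.diag_conj_pos htd hv),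
      e2 ▸ mul_mem (mul_mem hh hns) (inv_mem (mul_mem htd hh))⟩
  rw [S.pos_inf_diag, Subgroup.mem_bot] at hmem
  rw [hmem, eq_comm, mul_inv_eq_one, diag_commute S htd hh] at e2
  exact (mul_left_cancel e2).symm

/-- An element normalising a subgroup of the torus acts on it as a monomial element. -/
theorem exists_mono_pow (A : Twisted.GData T K) {g : GL D.Idx K} (hg : g ∈ A.G1) (X : Subgroup (GL D.Idx K))
    (hX : X ≤ A.H1) (hgX : ∀ x ∈ X, g * x * g⁻¹ ∈ X) :
    ∃ n ∈ A.N1, ∀ (k : ℕ), ∀ x ∈ X, g ^ k * x * (g ^ k)⁻¹ = n ^ k * x * (n ^ k)⁻¹ := by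
  obtain ⟨n, hn, h⟩ := exists_mono_conj A hg
  refine ⟨n, hn, fun k => ?_⟩
  induction k with
  | zero => intro x _; simp
  | succ k ih =>
    intro x hx
    have h1 := h x (hX hx) (hX (hgX x hx))
    rw [pow_succ, pow_succ, show g ^ k * g * x * (g ^ k * g)⁻¹ = g ^ k * (g * x * g⁻¹) * (g ^ k)⁻¹ by group,
      ih _ (hgX x hx), h1]
    group

namespace Ree4

open CfsgLib.Chev.Ree4

variable {K : Type u} [Field K] [Finite K] [CharP K 2] (m : ℕ) (hK : Nat.card K = 2 ^ (2 * m + 1))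

local notation "θ" => (2 ^ m : ℕ)

include hK in
/-- The sixteenth power of an element normalising a subgroup of the torus centralises it. -/
theorem pow_sixteen {g : GL chevF4.Idx K} (hg : g ∈ twistedF4 K θ) (X : Subgroup (GL chevF4.Idx K))
    (hX : X ≤ H1 K m) (hgX : ∀ x ∈ X, g * x * g⁻¹ ∈ X) :
    ∀ x ∈ X, g ^ 16 * x * (g ^ 16)⁻¹ = x := by
  obtain ⟨n, hn, h⟩ := exists_mono_pow (gdata K m hK) hg X hX hgX
  intro x hx
  rw [h 16 x hx]
  obtain ⟨φ, -, hker⟩ := exists_dihedral m hK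
  have hn' : n ∈ chevF4.monomialSubgroup K ⊓ twistedF4 K θ :=
    Subgroup.mem_inf.2 ⟨(gdata K m hK).N1_le_mono hn, (gdata K m hK).N1_le hn⟩
  have h16 : (⟨n, hn'⟩ : ↥(chevF4.monomialSubgroup K ⊓ twistedF4 K θ)) ^ 16 ∈ φ.ker := by
    rw [MonoidHom.mem_ker, map_pow]
    have := pow_card_eq_one' (x := φ ⟨n, hn'⟩)
    rwa [DihedralGroup.nat_card] at this
  rw [hker, Subgroup.mem_subgroupOf] at h16
  have hd : n ^ 16 ∈ chevF4.diagonalSubgroup K := (Subgroup.mem_inf.1 h16).1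
  rw [diag_commute SF hd ((gdata K m hK).H1_diag (hX hx)), mul_inv_cancel_right]

end Ree4

end CfsgLib.Chev.Ree4Sections
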